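import Cfsg.Agent.G2Oct.UnipotentBound
import Cfsg.Agent.PGroup.Normal

/-!
Eigenvalues of semisimple elements of `G₂` on the octonions: diagonal forms, commuting families, the structure
of small `p′`-subgroups, and the absence of elements of order five conjugate to their squares.
-/

set_option autoImplicit false

namespace CfsgLib.AltExc

open Matrix Cfsg.Lie CfsgLib.G2Oct Polynomial
open scoped commutatorElement

variable {F : Type*} [Field F] {K : Type*} [Field K] (ι : F →+* K)

/-- The matrix over the larger field. -/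
noncomputable def gm (g : ↥(G2 F)) : Matrix (Fin 8) (Fin 8) K := g2Mat (mapG2 ι g)

/-- The eigenvalues with multiplicity. -/
noncomputable def eig (g : ↥(G2 F)) : Multiset K := (gm ι g).charpoly.roots

theorem gm_mul (g h : ↥(G2 F)) : gm ι (g * h) = gm ι g * gm ι h := by
  rw [gm, map_mul, g2Mat_mul]; rfl

theorem gm_one : gm ι (1 : ↥(G2 F)) = 1 := by rw [gm, map_one, g2Mat_one]

theorem gm_injective : Function.Injective (gm ι) := fun _ _ h => mapG2_injective ι (g2Mat_injective h)

theorem gm_pow (g : ↥(G2 F)) (n : ℕ) : gm ι (g ^ n) = gm ι g ^ n := by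
  induction n with
  | zero => rw [pow_zero, pow_zero, gm_one]
  | succ n ih => rw [pow_succ, pow_succ, gm_mul, ih]

theorem gm_octOne (g : ↥(G2 F)) : gm ι g *ᵥ octOne K = octOne K := g2Mat_octOne _

theorem charpoly_conj' {A B N : Matrix (Fin 8) (Fin 8) K} (h' : B * A = 1) :
    (A * N * B).charpoly = N.charpoly := by
  rw [Matrix.charpoly_mul_comm, ← Matrix.mul_assoc, h', Matrix.one_mul]

theorem eig_conj (h g : ↥(G2 F)) : eig ι (h * g * h⁻¹) = eig ι g := by
  rw [eig, eig, gm_mul, gm_mul, charpoly_conj']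
  rw [← gm_mul, inv_mul_cancel, gm_one]

theorem roots_diagonal (w : Fin 8 → K) : (diagonal w).charpoly.roots = Finset.univ.val.map w := by
  rw [charpoly_diagonal, show (∏ i, (X - C (w i))) = ((Finset.univ.val.map w).map fun x => X - C x).prod by
    rw [Multiset.map_map]; rfl, roots_multiset_prod_X_sub_C]

theorem eig_of_conj {g : ↥(G2 F)} {P Q : Matrix (Fin 8) (Fin 8) K} {w : Fin 8 → K} (hQP : Q * P = 1)
    (h : P * gm ι g * Q = diagonal w) : eig ι g = Finset.univ.val.map w := by
  rw [eig, ← charpoly_conj' (A := P) hQP, h, roots_diagonal]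

/-- A semisimple element has the eigenvalues of a torus element. -/
theorem exists_torus [Fintype F] [IsAlgClosed K] (g : ↥(G2 F)) {m : ℕ} (hm : (m : F) ≠ 0) (hg : g ^ m = 1) :
    ∃ (P Q : Matrix (Fin 8) (Fin 8) K) (a b c : K), Q * P = 1 ∧ P * Q = 1 ∧ a * b * c = 1 ∧
      P * gm ι g * Q = diagonal (wOct a b c) := by
  obtain ⟨k, a, b, c, habc, hk⟩ := exists_torus_conj ι g hm hg
  refine ⟨g2Mat k, g2Mat k⁻¹, a, b, c, g2Mat_inv_mul k, g2Mat_mul_inv k, habc, ?_⟩
  rw [← hk, g2Mat_mul, g2Mat_mul]; rfl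

/-- The multiples modulo five of the weights of a torus element. -/
def w5 (i j : ZMod 5) : Fin 8 → ZMod 5 := ![0, i, j, -i - j, -i, -j, i + j, 0]

theorem w5_balanced : ∀ i j : ZMod 5, (∀ l : ZMod 5,
    (Finset.univ.filter fun k => 2 * w5 i j k = l).card = (Finset.univ.filter fun k => w5 i j k = l).card) →
    i = 0 ∧ j = 0 := by decide +kernel

theorem exists_pow_zmod {n : ℕ} [NeZero n] {ζ : K} (hζ : IsPrimitiveRoot ζ n) {x : K} (hx : x ^ n = 1) :
    ∃ i : ZMod n, x = ζ ^ i.val := by
  obtain ⟨i, hi, rfl⟩ := hζ.eq_pow_of_pow_eq_one hx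
  exact ⟨(i : ZMod n), by rw [ZMod.val_natCast_of_lt hi]⟩

include ι in
/-- No element of order five is conjugate to its square. -/
theorem not_conj_sq [Fintype F] [IsAlgClosed K] (h5 : (5 : F) ≠ 0) (z y : ↥(G2 F)) (hz : orderOf z = 5)
    (h : y * z * y⁻¹ = z ^ 2) : False := by
  classical
  have hz5 : z ^ 5 = 1 := hz ▸ pow_orderOf_eq_one z
  obtain ⟨P, Q, a, b, c, hQP, hPQ, habc, hD⟩ := exists_torus ι z (m := 5) (by exact_mod_cast h5) hz5
  have h5K : ((5 : ℕ) : K) ≠ 0 := by
    rw [← map_natCast ι]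
    intro e
    have := ι.injective (e.trans (map_zero ι).symm)
    exact h5 (by exact_mod_cast this)
  have hD5 : ∀ n : ℕ, P * gm ι (z ^ n) * Q = diagonal (fun k => wOct a b c k ^ n) := fun n => by
    induction n with
    | zero => rw [pow_zero, gm_one, Matrix.mul_one, hPQ, ← diagonal_one]; simp
    | succ n ih =>
      rw [pow_succ, gm_mul, show P * (gm ι (z ^ n) * gm ι z) * Q = (P * gm ι (z ^ n) * Q) * (P * gm ι z * Q) by
        simp only [Matrix.mul_assoc]; rw [← Matrix.mul_assoc Q P, hQP, Matrix.one_mul], ih, hD, diagonal_mul_diagonal]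
      simp [pow_succ]
  have hroot : ∀ k, wOct a b c k ^ 5 = 1 := fun k => by
    have h1 := hD5 5
    rw [hz5, gm_one, Matrix.mul_one, hPQ, ← diagonal_one] at h1
    exact (congrFun (diagonal_injective h1) k).symm
  haveI : NeZero ((5 : ℕ) : K) := ⟨h5K⟩
  obtain ⟨ζ, hζ⟩ := HasEnoughRootsOfUnity.exists_primitiveRoot K 5
  obtain ⟨i, hi⟩ := exists_pow_zmod hζ (x := a) (by simpa [wOct] using hroot 1)
  obtain ⟨j, hj⟩ := exists_pow_zmod hζ (x := b) (by simpa [wOct] using hroot 2)
  let e : ZMod 5 → K := fun l => ζ ^ l.val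
  have he : ∀ l l', e (l + l') = e l * e l' := fun l l' => by
    show ζ ^ (l + l').val = ζ ^ l.val * ζ ^ l'.val
    rw [← pow_add, ZMod.val_add, ← pow_eq_pow_mod _ hζ.pow_eq_one]
  have he0 : e 0 = 1 := by simp [e]
  have heneg : ∀ l, e (-l) = (e l)⁻¹ := fun l =>
    eq_inv_of_mul_eq_one_left (by rw [← he, neg_add_cancel, he0])
  have heinj : Function.Injective e := fun l l' hl =>
    ZMod.val_injective 5 (hζ.pow_inj (ZMod.val_lt l) (ZMod.val_lt l') hl)
  have hc : c = e (-i - j) := by
    rw [sub_eq_add_neg, he, heneg, heneg, show e i = a from hi.symm, show e j = b from hj.symm]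
    have ha := left_ne_zero_of_mul (left_ne_zero_of_mul (habc ▸ one_ne_zero : a * b * c ≠ 0))
    have hb := right_ne_zero_of_mul (left_ne_zero_of_mul (habc ▸ one_ne_zero : a * b * c ≠ 0))
    field_simp
    linear_combination habc
  have hw : wOct a b c = e ∘ w5 i j := by
    funext k
    fin_cases k <;> simp [wOct, w5, Function.comp, he0, hc, heneg, hi, hj, e] <;>
      first
        | rfl
        | (show _ = e (i + j); rw [show i + j = -(-i - j) by ring, heneg])
  have h2 : eig ι (z ^ 2) = Finset.univ.val.map (fun k => wOct a b c k ^ 2) := eig_of_conj ι hQP (hD5 2)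
  rw [← h, eig_conj, eig_of_conj ι hQP hD] at h2
  have hbal := w5_balanced i j fun l => by
    have h3 := congrArg (Multiset.count (e l)) h2
    rw [Multiset.count_map, Multiset.count_map] at h3
    have e1 : ∀ k, e l = wOct a b c k ↔ w5 i j k = l := fun k => by
      rw [hw]; exact ⟨fun hh => (heinj hh).symm, fun hh => by rw [Function.comp, hh]⟩
    have e2 : ∀ k, e l = wOct a b c k ^ 2 ↔ 2 * w5 i j k = l := fun k => by
      rw [hw, Function.comp, sq, ← he, two_mul]
      exact ⟨fun hh => (heinj hh).symm, fun hh => by rw [hh]⟩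
    simp only [e1, e2] at h3
    exact h3.symm
  have hz1 : z = 1 := gm_injective ι (by
    have h4 : P * gm ι z * Q = 1 := by
      rw [hD, hw, ← diagonal_one]
      congr 1
      funext k
      fin_cases k <;> simp [w5, hbal.1, hbal.2, he0]
    calc gm ι z = Q * (P * gm ι z * Q) * P := by
          simp only [Matrix.mul_assoc]; rw [hQP, Matrix.mul_one, ← Matrix.mul_assoc, hQP, Matrix.one_mul]
      _ = gm ι 1 := by rw [h4, Matrix.mul_one, hQP, gm_one])
  rw [hz1, orderOf_one] at hz
  norm_num at hz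

theorem eigen_count_le (a b c : K) [DecidableEq K] {ζ : K} (hζ : ζ ≠ 1) (hζ2 : ζ * ζ ≠ 1) (hζ0 : ζ ≠ 0) :
    (Finset.univ.filter fun i => wOct a b c i = ζ).card ≤ 3 := by
  rw [card_eigen a b c hζ]
  exact (sixCount_le_three hζ2 hζ0).1

include ι in
/-- For `l ≥ 5` the `l`-subgroups are abelian. -/
theorem abelian_of_five_le [Fintype F] [IsAlgClosed K] {l : ℕ} [hl : Fact l.Prime] (hl5 : 5 ≤ l)
    (hlF : (l : F) ≠ 0) (P : Subgroup ↥(G2 F)) (hP : IsPGroup l P) : ∀ a ∈ P, ∀ b ∈ P, a * b = b * a := by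
  classical
  by_contra hne
  have hcomm : commutator ↥P ≠ ⊥ := fun hb => hne fun a ha b hb' => by
    have h1 : ⁅(⟨a, ha⟩ : ↥P), ⟨b, hb'⟩⁆ ∈ commutator ↥P :=
      Subgroup.commutator_mem_commutator (Subgroup.mem_top _) (Subgroup.mem_top _)
    rw [hb, Subgroup.mem_bot, commutatorElement_eq_one_iff_mul_comm] at h1
    exact congrArg Subtype.val h1
  obtain ⟨⟨c₀, hc₀⟩, hc1⟩ := Subgroup.ne_bot_iff_exists_ne_one.1
    (CfsgLib.PGroup.inf_center_ne_bot hP (commutator ↥P) hcomm)
  obtain ⟨k, hk⟩ := IsPGroup.iff_orderOf.1 hP c₀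
  obtain ⟨k', rfl⟩ : ∃ k', k = k' + 1 := ⟨k - 1, by
    rcases k with - | k
    · exact absurd (Subtype.ext (orderOf_eq_one_iff.1 (by simpa using hk))) hc1
    · rfl⟩
  set c : ↥P := c₀ ^ l ^ k' with hc
  have hcl : orderOf c = l := by
    rw [hc, orderOf_pow_of_dvd (pow_ne_zero _ hl.out.ne_zero) (hk ▸ pow_dvd_pow l (Nat.le_succ _)), hk, pow_succ,
      Nat.mul_div_cancel_left _ (pow_pos hl.out.pos _)]
  have hcP : c ∈ commutator ↥P ⊓ Subgroup.center ↥P := Subgroup.pow_mem _ hc₀ _
  have hcl' : (c : ↥(G2 F)) ^ l = 1 := by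
    rw [← Subgroup.coe_pow, ← hcl, pow_orderOf_eq_one, Subgroup.coe_one]
  obtain ⟨A, B, a, b, d, hBA, hAB, habd, hD⟩ := exists_torus ι (c : ↥(G2 F)) (m := l) hlF hcl'
  set w := wOct a b d with hw
  let T : ↥P → Matrix (Fin 8) (Fin 8) K := fun x => A * gm ι (x : ↥(G2 F)) * B
  have hT : ∀ x y, T (x * y) = T x * T y := fun x y => by
    show A * gm ι ((x : ↥(G2 F)) * (y : ↥(G2 F))) * B = _
    rw [gm_mul]
    simp only [T, Matrix.mul_assoc]
    rw [← Matrix.mul_assoc B A, hBA, Matrix.one_mul]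
  have hTc : T c = diagonal w := hD
  obtain ⟨i₀, hi₀⟩ : ∃ i, w i ≠ 1 := by
    by_contra hall
    push Not at hall
    have h1 : (c : ↥(G2 F)) = 1 := gm_injective ι (by
      calc gm ι (c : ↥(G2 F)) = B * (A * gm ι (c : ↥(G2 F)) * B) * A := by
            simp only [Matrix.mul_assoc]; rw [hBA, Matrix.mul_one, ← Matrix.mul_assoc, hBA, Matrix.one_mul]
        _ = gm ι 1 := by rw [hD, show w = fun _ => 1 from funext hall, diagonal_one, Matrix.mul_one, hBA, gm_one])
    rw [Subgroup.orderOf_coe c |>.symm, h1, orderOf_one] at hcl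
    omega
  set ζ := w i₀ with hζ
  have hwl : ∀ i, w i ^ l = 1 := by
    have hpow : ∀ n : ℕ, T (c ^ n) = diagonal (fun k => w k ^ n) := fun n => by
      induction n with
      | zero => simp [T, gm_one, hAB]
      | succ n ih => rw [pow_succ, hT, ih, hTc, diagonal_mul_diagonal]; simp [pow_succ]
    intro i
    have h1 := hpow l
    rw [show c ^ l = 1 by rw [← hcl, pow_orderOf_eq_one]] at h1
    simp only [T, Subgroup.coe_one, gm_one, Matrix.mul_one, hAB] at h1
    rw [← diagonal_one] at h1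
    exact (congrFun (diagonal_injective h1) i).symm
  have hzero : ∀ (x : ↥P) i j, w i ≠ w j → T x i j = 0 := fun x i j hij => by
    have h1 : T x * T c = T c * T x := by
      rw [← hT, ← hT, Subgroup.mem_center_iff.1 hcP.2 x]
    rw [hTc] at h1
    have h2 := congrFun (congrFun h1 i) j
    rw [mul_diagonal, diagonal_mul, mul_comm] at h2
    by_contra hne'
    exact hij (mul_right_cancel₀ hne' h2).symm
  let S := {i : Fin 8 // w i = ζ}
  let blk : ↥P → Matrix S S K := fun x => (T x).submatrix Subtype.val Subtype.val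
  have hblk : ∀ x y, blk (x * y) = blk x * blk y := fun x y => by
    ext i j
    simp only [blk, Matrix.submatrix_apply, hT, Matrix.mul_apply]
    rw [← Finset.sum_subtype (Finset.univ.filter fun k => w k = ζ) (fun k => by simp)
      (fun k => T x i.1 k * T y k j.1)]
    refine (Finset.sum_subset (Finset.filter_subset _ _) fun k _ hk => ?_).symm
    rw [hzero x i.1 k (fun e => hk (Finset.mem_filter.2 ⟨Finset.mem_univ k, e.symm.trans i.2⟩)), zero_mul]
  have hblk1 : blk 1 = 1 := by
    ext i j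
    simp only [blk, T, Subgroup.coe_one, gm_one, Matrix.mul_one, hAB, Matrix.submatrix_apply, Matrix.one_apply]
    exact if_congr Subtype.ext_iff.symm rfl rfl
  let δ : ↥P →* K :=
    { toFun := fun x => (blk x).det
      map_one' := by rw [hblk1, det_one]
      map_mul' := fun x y => by rw [hblk, det_mul] }
  have hblkc : blk c = ζ • (1 : Matrix S S K) := by
    ext i j
    by_cases h : i = j
    · subst h
      simp [blk, hTc, i.2]
    · simp [blk, hTc, Matrix.one_apply_ne h, diagonal_apply_ne _ (Subtype.val_injective.ne h)]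
  have hδc : δ c = 1 := by
    have h1 : δ.toHomUnits c = 1 :=
      Abelianization.commutator_subset_ker δ.toHomUnits hcP.1
    exact congrArg Units.val h1
  have hζS : ζ ^ Fintype.card S = 1 := by
    rw [← hδc]
    show _ = (blk c).det
    rw [hblkc, det_smul, det_one, mul_one]
  have hprim : orderOf ζ = l := orderOf_eq_prime (hwl i₀) hi₀
  have hdvd : l ∣ Fintype.card S := hprim ▸ orderOf_dvd_of_pow_eq_one hζS
  have hpos : 0 < Fintype.card S := Fintype.card_pos_iff.2 ⟨⟨i₀, rfl⟩⟩
  have hζ2 : ζ * ζ ≠ 1 := fun e => by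
    have := orderOf_dvd_of_pow_eq_one (show ζ ^ 2 = 1 by rw [sq, e])
    rw [hprim] at this
    have := Nat.le_of_dvd (by norm_num) this
    omega
  have hle := eigen_count_le a b d hi₀ hζ2 (fun e => by rw [e, mul_zero] at hζ2; exact hi₀ (by
    have := hwl i₀
    rw [← hζ, e, zero_pow hl.out.ne_zero] at this
    exact absurd this zero_ne_one))
  have hle' : Fintype.card S ≤ 3 := le_of_eq_of_le (Fintype.card_subtype _) hle
  have := Nat.le_of_dvd hpos hdvd
  omega

/-- A commuting family of semisimple elements has a common basis of eigenvectors. -/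
theorem exists_joint_basis [Fintype F] [IsAlgClosed K] (A : Subgroup ↥(G2 F))
    (hA : ∀ a ∈ A, ∀ b ∈ A, a * b = b * a) (hcard : (Nat.card A : F) ≠ 0) :
    ∃ (P Q : Matrix (Fin 8) (Fin 8) K) (χ : Fin 8 → ↥A → K), Q * P = 1 ∧ P * Q = 1 ∧
      ∀ a : ↥A, P * gm ι (a : ↥(G2 F)) * Q = diagonal (fun i => χ i a) := by
  classical
  haveI : Fintype ↥A := Fintype.ofFinite _
  have hcK : ((Nat.card A : ℕ) : K) ≠ 0 := by
    rw [← map_natCast ι]
    exact fun e => hcard (ι.injective (by rw [e, map_zero]))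
  let f : ↥A → Module.End K (Fin 8 → K) := fun a => Matrix.toLin' (gm ι (a : ↥(G2 F)))
  have happ : ∀ a x, f a x = gm ι (a : ↥(G2 F)) *ᵥ x := fun a x => Matrix.toLin'_apply _ x
  have hfm : ∀ a b, f (a * b) = f a * f b := fun a b => by
    show Matrix.toLin' (gm ι ((a : ↥(G2 F)) * (b : ↥(G2 F)))) = _
    rw [gm_mul, Matrix.toLin'_mul]; rfl
  have hf1 : f 1 = 1 := by
    show Matrix.toLin' (gm ι ((1 : ↥A) : ↥(G2 F))) = _
    rw [Subgroup.coe_one, gm_one, Matrix.toLin'_one]; rfl
  have hfp : ∀ a (n : ℕ), f (a ^ n) = f a ^ n := fun a n => by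
    induction n with
    | zero => rw [pow_zero, pow_zero, hf1]
    | succ n ih => rw [pow_succ, pow_succ, hfm, ih]
  have hspan : ∀ T : Finset ↥A, ⊤ ≤ Submodule.span K {v : Fin 8 → K | ∀ a ∈ T, ∃ μ : K, f a v = μ • v} := by
    intro T
    induction T using Finset.induction_on with
    | empty => simp
    | insert b T _ ih =>
      refine ih.trans (Submodule.span_le.2 fun v hv => ?_)
      choose! μ hμ using hv
      let U : Submodule K (Fin 8 → K) := ⨅ a ∈ T, Module.End.eigenspace (f a) (μ a)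
      have hmemU : ∀ x, x ∈ U ↔ ∀ a ∈ T, f a x = μ a • x := fun x => by
        simp [U, Submodule.mem_iInf, Module.End.mem_eigenspace_iff]
      have hinv : ∀ x ∈ U, f b x ∈ U := fun x hx => (hmemU _).2 fun a ha => by
        have h1 : f a (f b x) = f b (f a x) := by
          rw [← Module.End.mul_apply, ← Module.End.mul_apply, ← hfm, ← hfm,
            show a * b = b * a from Subtype.ext (hA a a.2 b b.2)]
        rw [h1, (hmemU x).1 hx a ha, map_smul]
      have hres : (LinearMap.restrict (f b) hinv : Module.End K U) ^ Nat.card A = 1 := by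
        refine LinearMap.ext fun x => Subtype.ext ?_
        rw [Module.End.pow_restrict _ hinv]
        show (f b ^ Nat.card A) (x : Fin 8 → K) = x
        rw [← hfp, pow_card_eq_one', hf1]; rfl
      have h2 := span_eigen_eq_top _ hcK hres (Submodule.mem_top (x := (⟨v, (hmemU v).2 hμ⟩ : U)))
      have h3 := Submodule.mem_map_of_mem (f := U.subtype) h2
      rw [Submodule.map_span] at h3
      refine Submodule.span_mono ?_ h3
      rintro _ ⟨x, ⟨ν, hν⟩, rfl⟩ a ha
      rcases Finset.mem_insert.1 ha with rfl | ha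
      · exact ⟨ν, congrArg Subtype.val hν⟩
      · exact ⟨μ a, (hmemU _).1 x.2 a ha⟩
  have hs := hspan Finset.univ
  let bas := Module.Basis.ofSpan hs
  haveI := Module.Finite.finite_basis bas
  haveI := Fintype.ofFinite ↑((linearIndepOn_empty K id).extend (Set.empty_subset
    {v : Fin 8 → K | ∀ a ∈ (Finset.univ : Finset ↥A), ∃ μ : K, f a v = μ • v}))
  have hcard8 := (Module.finrank_eq_card_basis bas).symm.trans (Module.finrank_fin_fun K)
  let b8 := bas.reindex (Fintype.equivFinOfCardEq hcard8)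
  have hμ : ∀ i (a : ↥A), ∃ μ : K, f a (b8 i) = μ • b8 i := fun i a => by
    have h := Module.Basis.ofSpan_subset hs ⟨(Fintype.equivFinOfCardEq hcard8).symm i, rfl⟩
    simp only [b8, Module.Basis.reindex_apply, bas]
    exact h a (Finset.mem_univ a)
  choose χ hχ using hμ
  let Q : Matrix (Fin 8) (Fin 8) K := Matrix.of fun i j => b8 j i
  have hQ : IsUnit Q := Matrix.linearIndependent_cols_iff_isUnit.1 b8.linearIndependent
  have hd : IsUnit Q.det := (Matrix.isUnit_iff_isUnit_det _).1 hQ
  refine ⟨Q⁻¹, Q, χ, Matrix.mul_nonsing_inv _ hd, Matrix.nonsing_inv_mul _ hd, fun a => ?_⟩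
  have hgQ : gm ι (a : ↥(G2 F)) * Q = Q * diagonal (fun i => χ i a) := by
    ext i j
    rw [mul_diagonal]
    have h := congrFun ((happ a (b8 j)).symm.trans (hχ j a)) i
    simp only [Matrix.mulVec, dotProduct, Pi.smul_apply, smul_eq_mul] at h
    simp only [Matrix.mul_apply, Q, Matrix.of_apply]
    rw [h, mul_comm]
  rw [Matrix.mul_assoc, hgQ, ← Matrix.mul_assoc, Matrix.nonsing_inv_mul _ hd, Matrix.one_mul]

end CfsgLib.AltExc
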